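import Cfsg.Agent.Lib.CosetCert.D.OnM11.Lv0.Tab
import Cfsg.Agent.Lib.CosetCert.D.OnM11.Lv0.C0
import Cfsg.Agent.Lib.CosetCert.D.OnM11.Lv0.R0
import Cfsg.Agent.Lib.CosetCert.D.OnM11.Lv0.S0

namespace Cfsg.Agent.Lib.CosetCert.D.OnM11.Lv0.Ok

open Cfsg.Agent.Lib.CosetCert Cfsg.Agent.Lib.TC.Core Cfsg.Agent.Lib.TC.Enc Cfsg.Agent.Lib.TC.Pres Cfsg.Agent.Lib.TC.Perm Cfsg.Agent.Lib.TC.Main

set_option maxRecDepth 100000

open Cfsg.Agent.Lib.CosetCert.D.OnM11.Lv0.Tab Cfsg.Agent.Lib.CosetCert.D.OnM11.Tbl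

/-- The point of the orbit. -/
noncomputable def pt : ℕ → ℕ := cell 6 63 (nat_lit 0x36d74cf2c70beeb6caeaa689e69648e28607de75c6da6585d65544d24503ce34c2ca2481c61440c2040)

/-- The index of a point. -/
noncomputable def ptInv : ℕ → ℕ := cell 6 63 (nat_lit 0x36d74cf2c70beeb6caeaa689e69648e28607de75c6da6585d65544d24503ce34c2ca2481c61440c2040)

/-- The tree: parents. -/
noncomputable def tp : ℕ → ℕ := cell 6 63 (nat_lit 0x32cb1befb2ba268e28607de75d6996585d65555134924503cf38d30c2cb2892481c6144082041000000)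

/-- The tree: letters. -/
noncomputable def tl : ℕ → ℕ := cell 2 3 (nat_lit 0x1190158196419041919924114990)

theorem hrelk : ∀ l ∈ rels, ∀ z ∈ l, z < L0.k := by decide +kernel

theorem hsubk : ∀ l ∈ subs, ∀ z ∈ l, z < L0.k := by decide +kernel

theorem hrelR : allR (guard 55 (wordFixes F0 rels)) 6 0 = true :=
  Cfsg.Agent.Lib.CosetCert.D.OnM11.Lv0.R0.ok

theorem hsubR : allR (guard 55 (fun x => wordIs F0 F1 subs x 0)) 6 0 = true :=
  Cfsg.Agent.Lib.CosetCert.D.OnM11.Lv0.S0.ok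

theorem allC0 : cert.chkRange 0 59 = true := Cfsg.Agent.Lib.CosetCert.D.OnM11.Lv0.C0.ok
theorem allF0 : cert.chkFinal 0 59 = true := Cfsg.Agent.Lib.CosetCert.D.OnM11.Lv0.C0.fin

theorem h0 : cert.eLvl (cert.par (cert.find cert.MAX cert.D 0)) = cert.MAX := by decide +kernel

theorem hcount : cert.countRoots cert.N = 55 := by
  rw [countRoots_eq_acc]
  decide +kernel

theorem hchecked : Checked cert where
  hN := by decide
  hC := allC0
  hF := allF0
  h0 := h0

theorem h1 : chkRelRots cert inv0 rels witT.get = true := by decide +kernel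

theorem h2 : chkSubRots cert subs = true := by decide +kernel

theorem hfix : allLt (fun s => Nat.beq (F1 s 0) 0) 4 = true := by decide +kernel

theorem horb : allR (guard 55 (orbOK F0 pt ptInv tp tl 3)) 6 0 = true := by decide +kernel

/-- The point. -/
def p : Fin 55 := ⟨0, by decide⟩

theorem h0pt : pt 0 = p := by decide +kernel

/-- The level. -/
theorem result : LevelResult L0.G L1.G p 55 pt :=
  level_of_checks L0 L1 cert rfl rels subs witT.get hrelk
    (all_of_allR (by decide) hrelR) hsubk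
    (all_of_allR (by decide) hsubR)
    (by decide) (by decide) h1 h2 hchecked hcount p (fun s hs => Nat.eq_of_beq_eq_true (allLt_spec hfix s hs))
    pt ptInv tp tl h0pt (all_of_allR (by decide) horb)

end Cfsg.Agent.Lib.CosetCert.D.OnM11.Lv0.Ok
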